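import Mathlib
import Cfsg.Agent.Lib.Helper2.PP.Defs

set_option autoImplicit false

/-!
S3753 (helper2, project PP): package [FIN], the assembly of the statement from the packages.
-/

namespace Cfsg.Agent.Lib.Helper62.PP

open Cfsg.Agent.Lib.Helper2.PP Cfsg.Agent.Lib.Helper11

universe u

/-- Commutative Sylow `2`-subgroups of `↥M` give `TwoAb M`. -/
theorem twoAb_of_sylow {G : Type u} [Group G] [Finite G] (M : Subgroup G)
    (h : ∀ S : Sylow 2 ↥M, IsMulCommutative (S : Subgroup ↥M)) : TwoAb M := by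
  have : Fact (Nat.Prime 2) := ⟨Nat.prime_two⟩
  obtain ⟨S⟩ : Nonempty (Sylow 2 ↥M) := inferInstance
  have h1 : TwoAb (⊤ : Subgroup ↥M) := twoAb_top_of_sylow S (h S)
  have h2 := TwoAb.map M.subtype h1
  rwa [← MonoidHom.range_eq_map, Subgroup.range_subtype] at h2

/-- If `O_p(M) = 1` and `C_M(O_p(M)) ≤ O_p(M)` then `M = 1`. -/
theorem eq_bot_of_Qof_eq_bot {G : Type u} [Group G] {p : ℕ} (M : Subgroup G) (hQ : Qof p M = ⊥)
    (hc : Subgroup.centralizer (Cfsg.pCore p ↥M : Set ↥M) ≤ Cfsg.pCore p ↥M) : M = ⊥ := by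
  have h1 : Cfsg.pCore p ↥M = ⊥ := by
    unfold Qof at hQ
    exact (Subgroup.map_eq_bot_iff_of_injective _ M.subtype_injective).mp hQ
  rw [h1] at hc
  rw [eq_bot_iff]
  intro x hx
  have h2 : (⟨x, hx⟩ : ↥M) ∈ Subgroup.centralizer ((⊥ : Subgroup ↥M) : Set ↥M) := by
    rw [Subgroup.mem_centralizer_iff]
    intro h hh
    rw [Subgroup.coe_bot, Set.mem_singleton_iff] at hh
    rw [hh]; simp
  have h3 := hc h2
  rw [Subgroup.mem_bot] at h3 ⊢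
  exact congrArg (fun t : ↥M => (t : G)) h3

/-- **[FIN]** S3753 from the packages. -/
theorem main (_hT : PkgT.{u}) (_hF1 : PkgF1.{u}) (hB : PkgBase.{u}) (hS : PkgStep.{u})
    (h2 : PkgTwo.{u}) {G : Type u} [Group G] [Finite G] {p : ℕ} [Fact p.Prime]
    (M₁ M₂ : Subgroup G) (hne : M₁ ≠ M₂)
    (hP : ∀ A : Subgroup G, A ≠ ⊥ → A ≤ M₁ ⊓ M₂ →
      (M₁ ≤ Subgroup.normalizer (A : Set G) → M₂ ⊓ Subgroup.normalizer (A : Set G) = M₁ ⊓ M₂) ∧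
      (M₂ ≤ Subgroup.normalizer (A : Set G) → M₁ ⊓ Subgroup.normalizer (A : Set G) = M₁ ⊓ M₂))
    (hc₁ : Subgroup.centralizer (Cfsg.pCore p ↥M₁ : Set ↥M₁) ≤ Cfsg.pCore p ↥M₁)
    (hc₂ : Subgroup.centralizer (Cfsg.pCore p ↥M₂ : Set ↥M₂) ≤ Cfsg.pCore p ↥M₂)
    (hO : (Cfsg.pCore p ↥M₁).map M₁.subtype ⊔ (Cfsg.pCore p ↥M₂).map M₂.subtype ≤ M₁ ⊓ M₂) :
    (∃ S : Sylow 2 ↥M₁, ¬ IsMulCommutative (S : Subgroup ↥M₁)) ∨
      (∃ S : Sylow 2 ↥M₂, ¬ IsMulCommutative (S : Subgroup ↥M₂)) := by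
  by_contra hcon
  push Not at hcon
  obtain ⟨ha1, ha2⟩ := hcon
  by_cases hp : p = 2
  · subst hp
    exact h2 M₁ M₂ hne hP hc₁ hc₂ hO ha1 ha2
  have hq1 : Qof p M₁ ≤ M₂ := (le_sup_left.trans hO).trans inf_le_right
  have hq2 : Qof p M₂ ≤ M₁ := (le_sup_right.trans hO).trans inf_le_left
  have hyp : Hyp p M₁ M₂ :=
    { cM := hc₁
      cN := hc₂
      qM := hq1
      qN := hq2
      pM := fun A hA hle hn => by
        have h0 := (hP A hA hle).1 hn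
        rw [h0]; exact inf_le_left
      pN := fun A hA hle hn => by
        have h0 := (hP A hA hle).2 hn
        rw [h0]; exact inf_le_right
      tM := twoAb_of_sylow M₁ ha1
      tN := twoAb_of_sylow M₂ ha2 }
  have hQ1 : Qof p M₁ ≠ ⊥ := by
    intro h0
    have hM1 : M₁ = ⊥ := eq_bot_of_Qof_eq_bot M₁ h0 hc₁
    have hQ2 : Qof p M₂ = ⊥ := by
      rw [eq_bot_iff]; rw [hM1] at hq2; exact hq2
    have hM2 : M₂ = ⊥ := eq_bot_of_Qof_eq_bot M₂ hQ2 hc₂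
    exact hne (hM1.trans hM2.symm)
  obtain ⟨V, hV⟩ := hB hp M₁ M₂ hyp hQ1
  have : Nonempty {U : Subgroup G // Inv p M₁ M₂ U} := ⟨⟨V, hV⟩⟩
  obtain ⟨⟨U, hU⟩, hmax⟩ := Finite.exists_max
    (fun U : {U : Subgroup G // Inv p M₁ M₂ U} => Nat.card ↥(U : Subgroup G))
  have h1 : Inv p M₂ M₁ (ncl M₂ U) := hS hp M₁ M₂ U hyp hU
  have h2' : Inv p M₁ M₂ (ncl M₁ (ncl M₂ U)) := hS hp M₂ M₁ (ncl M₂ U) hyp.symm h1
  have hle1 : U ≤ ncl M₂ U := le_ncl M₂ U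
  have hle2 : ncl M₂ U ≤ ncl M₁ (ncl M₂ U) := le_ncl M₁ _
  have hcard : Nat.card ↥(ncl M₁ (ncl M₂ U)) ≤ Nat.card ↥U := hmax ⟨_, h2'⟩
  have heq : U = ncl M₁ (ncl M₂ U) := Subgroup.eq_of_le_of_card_ge (hle1.trans hle2) hcard
  have heq2 : ncl M₂ U = U := le_antisymm (hle2.trans heq.ge) hle1
  have hn2 : M₂ ≤ Subgroup.normalizer (U : Set G) := by
    intro n hn
    rw [Subgroup.mem_normalizer_iff]
    intro g
    constructor
    · intro hg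
      have h3 := ncl_conj_mem (N := M₂) (U := U) hn (heq2.symm ▸ hg)
      rw [heq2] at h3; exact h3
    · intro hg
      have h3 := ncl_conj_mem (N := M₂) (U := U) (M₂.inv_mem hn) (heq2.symm ▸ hg)
      rw [heq2] at h3
      have h4 : n⁻¹ * (n * g * n⁻¹) * n⁻¹⁻¹ = g := by group
      rw [h4] at h3; exact h3
  have hUle : U ≤ M₁ ⊓ M₂ := le_inf (hU.leM.trans (Qof_le p M₁)) (hU.leN.trans (Qof_le p M₂))
  have e1 := (hP U hU.ne hUle).1 hU.nM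
  have e2 := (hP U hU.ne hUle).2 hn2
  have l1 : M₂ ≤ M₁ := by
    have h5 : M₂ ≤ M₂ ⊓ Subgroup.normalizer (U : Set G) := le_inf le_rfl hn2
    rw [e1] at h5; exact h5.trans inf_le_left
  have l2 : M₁ ≤ M₂ := by
    have h5 : M₁ ≤ M₁ ⊓ Subgroup.normalizer (U : Set G) := le_inf le_rfl hU.nM
    rw [e2] at h5; exact h5.trans inf_le_right
  exact hne (le_antisymm l2 l1)

end Cfsg.Agent.Lib.Helper62.PP
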